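import Cfsg.Agent.H142.McKayN
import Cfsg.Agent.SylowG2.SLTwoThreeRecog
import Cfsg.Agent.CharactersDeep.QuatSylow
import Cfsg.Agent.LieClassical.SLTwoSylowTwo
import Cfsg.Agent.LieClassical.SLTwoThree
import Cfsg.Agent.LieClassical.SLTwoQuaternion
import Cfsg.Agent.LFourB.ProdAut
import Cfsg.Agent.TwoFusion.LocalIndex

/-!
# Odd-degree characters of the normaliser of a Sylow `2`-subgroup of `SL_2(q)`, `q` odd

`np_two`: there are exactly four.
-/

set_option autoImplicit false
open Cfsg

namespace Cfsg.Agent.H142.McKayTwo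

open scoped MatrixGroups
open Cfsg.Agent.H140.SLTwo Cfsg.Agent.H140.Tori Cfsg.Agent.H142.McKayCount Cfsg.Agent.LieClassical

theorem exists_comm : ∀ x : QuaternionGroup 2, ∃ g h : Matrix.SpecialLinearGroup (Fin 2) (ZMod 3),
    SLTwoThree.qhom x = g * h * g⁻¹ * h⁻¹ := by
  decide +kernel

/-- The commutator subgroup of `SL_2(3)` has index three. -/
theorem index_commutator_SL23 : (commutator (Matrix.SpecialLinearGroup (Fin 2) (ZMod 3))).index = 3 := by
  have h1 : commutator (Matrix.SpecialLinearGroup (Fin 2) (ZMod 3)) = SLTwoThree.qhom.range := by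
    apply le_antisymm
    · have := SLTwoThree.range_normal
      have hc : Nat.card (Matrix.SpecialLinearGroup (Fin 2) (ZMod 3) ⧸ SLTwoThree.qhom.range) = 3 :=
        SLTwoThree.index_range
      have hcyc : IsCyclic (Matrix.SpecialLinearGroup (Fin 2) (ZMod 3) ⧸ SLTwoThree.qhom.range) :=
        isCyclic_of_prime_card (p := 3) hc
      rw [commutator_def, Subgroup.commutator_le]
      intro g _ h _
      rw [commutatorElement_def, ← QuotientGroup.eq_one_iff]
      have h2 := IsCyclic.isMulCommutative.is_comm.comm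
        (g : Matrix.SpecialLinearGroup (Fin 2) (ZMod 3) ⧸ SLTwoThree.qhom.range)
        (h : Matrix.SpecialLinearGroup (Fin 2) (ZMod 3) ⧸ SLTwoThree.qhom.range)
      rw [QuotientGroup.mk_mul, QuotientGroup.mk_mul, QuotientGroup.mk_mul, QuotientGroup.mk_inv,
        QuotientGroup.mk_inv, h2]
      group
    · rintro _ ⟨x, rfl⟩
      obtain ⟨g, h, hgh⟩ := exists_comm x
      rw [hgh]
      exact Subgroup.commutator_mem_commutator (Subgroup.mem_top g) (Subgroup.mem_top h)
  rw [h1, SLTwoThree.index_range]

theorem np_SL23 : np 2 (Matrix.SpecialLinearGroup (Fin 2) (ZMod 3)) = 4 ∧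
    np 3 (Matrix.SpecialLinearGroup (Fin 2) (ZMod 3)) = 6 := by
  apply np_of_card_24 _ index_commutator_SL23
  rw [Nat.card_eq_fintype_card, SLTwoThree.card_sl]

/-- The commutator subgroup of a generalised quaternion group has index four. -/
theorem index_commutator_quat (m : ℕ) [NeZero m] : (commutator (QuaternionGroup m)).index = 4 := by
  rw [Cfsg.Agent.CharactersDeep.QuatSylow.quat_commutator]
  have h1 := Subgroup.card_mul_index (Subgroup.zpowers (QuaternionGroup.a 2 : QuaternionGroup m))
  have h2 : Nat.card (Subgroup.zpowers (QuaternionGroup.a 2 : QuaternionGroup m)) = m := by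
    rw [Nat.card_zpowers]
    have h3 : (QuaternionGroup.a 2 : QuaternionGroup m) = (QuaternionGroup.a 1) ^ 2 := by
      rw [QuaternionGroup.a_one_pow]; rfl
    rw [h3, orderOf_pow, QuaternionGroup.orderOf_a_one]
    have : Nat.gcd (2 * m) 2 = 2 := Nat.gcd_eq_right (dvd_mul_right 2 m)
    rw [this, Nat.mul_div_cancel_left _ (by norm_num)]
  have hm : 0 < m := Nat.pos_of_ne_zero (NeZero.ne m)
  rw [h2, Nat.card_eq_fintype_card, QuaternionGroup.card] at h1
  have h4 : m * (Subgroup.zpowers (QuaternionGroup.a 2 : QuaternionGroup m)).index = m * 4 := by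
    rw [h1, mul_comm]
  exact Nat.eq_of_mul_eq_mul_left hm h4

/-- A group with a normal, self-centralising, generalised quaternion Sylow `2`-subgroup has exactly
four irreducible characters of odd degree. -/
theorem np_two_of_normal {N : Type*} [Group N] [Finite N] (S : Sylow 2 N) (hn : (S : Subgroup N).Normal)
    {k : ℕ} (hk : 1 ≤ k) (e : (S : Subgroup N) ≃* QuaternionGroup (2 ^ k))
    (hC : Subgroup.centralizer ((S : Subgroup N) : Set N) ≤ S) : np 2 N = 4 := by
  classical
  have hodd_one : ∀ x ∈ (S : Subgroup N), Odd (orderOf x) → x = 1 := by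
    intro x hx ho
    obtain ⟨j, hj⟩ := S.2 ⟨x, hx⟩
    have h2 : x ^ 2 ^ j = 1 := congrArg Subtype.val hj
    have h3 : orderOf x ∣ 2 ^ j := orderOf_dvd_of_pow_eq_one h2
    obtain ⟨i, -, hi⟩ := (Nat.dvd_prime_pow Nat.prime_two).1 h3
    rw [hi] at ho
    have : i = 0 := by
      by_contra h0
      exact (Nat.not_odd_iff_even.2 ((Nat.even_pow).2 ⟨even_two, h0⟩)) ho
    rw [this, pow_zero] at hi
    exact orderOf_eq_one_iff.1 hi
  rcases Nat.lt_or_ge 1 k with hk2 | hk1
  · -- `N` is a 2-group
    have h2 : IsPGroup 2 N := by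
      rw [IsPGroup.iff_card]
      by_contra hcon
      have : ∃ r : ℕ, r.Prime ∧ r ≠ 2 ∧ r ∣ Nat.card N := by
        by_contra hno
        push Not at hno
        apply hcon
        refine ⟨(Nat.card N).primeFactorsList.length, ?_⟩
        have h0 : Nat.card N ≠ 0 := Nat.card_pos.ne'
        exact Nat.eq_prime_pow_of_unique_prime_dvd h0 (fun {d} hd hdvd => by
          by_contra hd2
          exact hno d hd hd2 hdvd)
      obtain ⟨r, hr, hr2, hrd⟩ := this
      have := Fact.mk hr
      obtain ⟨x, hx⟩ := exists_prime_orderOf_dvd_card' r hrd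
      have hox : Odd (orderOf x) := by rw [hx]; exact hr.odd_of_ne_two hr2
      have h3 := Cfsg.Agent.LFourB.ProdAut.eq_one_of_odd' (k := k) (by omega) e
        (MulAut.conjNormal x : MulAut (S : Subgroup N)) (n := orderOf x) hox (by
          rw [← map_pow, pow_orderOf_eq_one, map_one])
      have h4 : x ∈ Subgroup.centralizer ((S : Subgroup N) : Set N) := by
        rw [Subgroup.mem_centralizer_iff]
        intro y hy
        have h5 := congrArg (fun φ : MulAut (S : Subgroup N) => ((φ ⟨y, hy⟩ : (S : Subgroup N)) : N)) h3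
        simp only [MulAut.conjNormal_apply, MulAut.one_apply] at h5
        calc y * x = x * y * x⁻¹ * x := by rw [h5]
          _ = x * y := by group
      have h6 := hodd_one x (hC h4) hox
      rw [h6, orderOf_one] at hx
      exact hr.one_lt.ne hx
    have hS : (S : Subgroup N) = ⊤ := by
      have h3 := h2
      have h4 : IsPGroup 2 (⊤ : Subgroup N) := h2.of_equiv Subgroup.topEquiv.symm
      exact (S.3 h4 le_top).symm
    have e' : N ≃* QuaternionGroup (2 ^ k) :=
      (Subgroup.topEquiv.symm.trans (MulEquiv.subgroupCongr hS.symm)).trans e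
    rw [np_congr e', np_of_isPGroup (h2.of_equiv e'), index_commutator_quat]
  · have hk' : k = 1 := le_antisymm hk1 hk
    subst hk'
    have e2 : (S : Subgroup N) ≃* QuaternionGroup 2 := e
    have hcS : Nat.card (S : Subgroup N) = 8 := by
      rw [Nat.card_congr e2.toEquiv, Nat.card_eq_fintype_card, QuaternionGroup.card]
    -- the index of S divides 3
    have hidx : (S : Subgroup N).index ∣ 3 := by
      have h1 := Cfsg.Agent.TwoFusion.LocalIndex.relIndex_quaternion_dvd (S : Subgroup N) e2
      rw [Subgroup.normalizer_eq_top, sup_eq_left.2 hC, Subgroup.relIndex_top_right] at h1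
      have h2 : ¬ 2 ∣ (S : Subgroup N).index := S.not_dvd_index
      have h3 : Nat.Coprime (S : Subgroup N).index 2 := by
        rw [Nat.coprime_comm, Nat.Prime.coprime_iff_not_dvd Nat.prime_two]
        exact h2
      exact h3.dvd_of_dvd_mul_left (by simpa using h1 : (S : Subgroup N).index ∣ 2 * 3)
    rcases (Nat.dvd_prime Nat.prime_three).1 hidx with h1 | h3
    · have hS : (S : Subgroup N) = ⊤ := Subgroup.index_eq_one.1 h1
      have e' : N ≃* QuaternionGroup 2 :=
        (Subgroup.topEquiv.symm.trans (MulEquiv.subgroupCongr hS.symm)).trans e2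
      have h2 : IsPGroup 2 N := by
        have h4 : IsPGroup 2 (S : Subgroup N) := S.2
        rw [hS] at h4
        exact h4.of_equiv Subgroup.topEquiv
      rw [np_congr e', np_of_isPGroup (h2.of_equiv e'), index_commutator_quat]
    · have hcN : Nat.card N = 24 := by
        rw [← Subgroup.card_mul_index (S : Subgroup N), hcS, h3]
      have := Fact.mk Nat.prime_three
      obtain ⟨x, hx⟩ := exists_prime_orderOf_dvd_card' (G := N) 3 (by rw [hcN]; norm_num)
      have hxS : x ∉ Subgroup.centralizer ((S : Subgroup N) : Set N) := by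
        intro h4
        have h5 := hodd_one x (hC h4) (by rw [hx]; decide)
        rw [h5, orderOf_one] at hx
        omega
      obtain ⟨e'⟩ := Cfsg.Agent.SylowG2.SLTwoThreeRecog.mulEquiv_of_quaternion hcN (S : Subgroup N) hn
        ⟨e2⟩ x hx hxS
      rw [np_congr e', np_SL23.1]


/-- The normaliser of a Sylow `2`-subgroup of `SL_2(q)`, `q` odd, has exactly four irreducible
characters of odd degree. -/
theorem np_two {F : Type*} [Field F] [Fintype F] (p : ℕ) [Fact p.Prime] [CharP F p] (hp : p ≠ 2)
    (S : Sylow 2 SL(2, F)) :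
    np 2 ↥(Subgroup.normalizer ((S : Subgroup SL(2, F)) : Set SL(2, F))) = 4 := by
  classical
  -- `S` is not cyclic
  have hncyc : ¬ IsCyclic (S : Subgroup SL(2, F)) := by
    obtain ⟨i, j, hi, hj, hij, hne⟩ := SLTwoSylowTwo.exists_quaternion_pair p hp
    let _ : Algebra (ZMod p) F := ZMod.algebra F p
    let f : SL(2, ZMod p) →* SL(2, F) := Matrix.SpecialLinearGroup.map (algebraMap (ZMod p) F)
    have hf : Function.Injective f := by
      intro a b hab
      apply Subtype.ext
      ext r c
      have h1 := congrFun (congrFun (congrArg Subtype.val hab) r) c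
      exact (algebraMap (ZMod p) F).injective h1
    refine SLTwoSylowTwo.not_isCyclic_sylow S (i := f i) (j := f j) ?_ ?_ ?_ ?_
    · rw [← map_pow, hi, map_one]
    · rw [← map_pow, hj, map_one]
    · rw [← map_inv, ← map_mul, ← map_mul, hij, map_inv]
    · intro h
      rw [← map_mul, ← map_mul] at h
      exact hne (hf h)
  have hnc : ¬ ∀ a b : (S : Subgroup SL(2, F)), a * b = b * a := fun h =>
    hncyc (SLTwoQuaternion.isCyclic_of_comm p hp (S : Subgroup SL(2, F)) S.2 h)
  obtain ⟨k, hk, ⟨e⟩⟩ := SLTwoQuaternion.quaternion_of_not_comm p hp (S : Subgroup SL(2, F)) S.2 hnc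
  have h2 : (2 : F) ≠ 0 := by
    intro h
    have h3 : ((2 : ℕ) : F) = 0 := by exact_mod_cast h
    rw [CharP.cast_eq_zero_iff F p] at h3
    exact hp ((Nat.prime_dvd_prime_iff_eq Fact.out Nat.prime_two).1 h3)
  -- `-1` lies in `S`
  have hneg : (-1 : SL(2, F)) ∈ (S : Subgroup SL(2, F)) := by
    have hcard : 1 < Nat.card (S : Subgroup SL(2, F)) := by
      rw [Nat.card_congr e.toEquiv, Nat.card_eq_fintype_card, QuaternionGroup.card]
      have : 0 < 2 ^ k := by positivity
      omega
    have hdvd : 2 ∣ Nat.card (S : Subgroup SL(2, F)) := by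
      rw [Nat.card_congr e.toEquiv, Nat.card_eq_fintype_card, QuaternionGroup.card]
      exact ⟨2 * 2 ^ k, by ring⟩
    obtain ⟨x, hx⟩ := exists_prime_orderOf_dvd_card' (G := (S : Subgroup SL(2, F))) 2 hdvd
    have hx2 : (x : SL(2, F)) * x = 1 := by
      have h3 := pow_orderOf_eq_one x
      rw [hx, pow_two] at h3
      exact congrArg Subtype.val h3
    rcases sq_eq_one h2 hx2 with h3 | h3
    · exfalso
      have h4 : x = 1 := Subtype.ext h3
      rw [h4, orderOf_one] at hx
      omega
    · rw [← h3]; exact x.2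
  -- the centraliser of `S`
  have hcent : ∀ c : SL(2, F), c ∈ Subgroup.centralizer ((S : Subgroup SL(2, F)) : Set SL(2, F)) →
      c ∈ (S : Subgroup SL(2, F)) := by
    intro c hc
    by_cases hsc : ∃ r : F, (c : Matrix (Fin 2) (Fin 2) F) = r • (1 : Matrix (Fin 2) (Fin 2) F)
    · obtain ⟨r, hr⟩ := hsc
      rcases Cfsg.Agent.ClassicalGeometry.NonsplitTorus.eq_one_or_of_smul c r hr with h3 | h3
      · rw [h3]; exact (S : Subgroup SL(2, F)).one_mem
      · rw [h3]; exact hneg
    · exfalso
      push Not at hsc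
      apply hnc
      intro a b
      have ha := Subgroup.mem_centralizer_iff.1 hc a a.2
      have hb := Subgroup.mem_centralizer_iff.1 hc b b.2
      apply Subtype.ext
      apply Subtype.ext
      exact SLTwoQuaternion.commute_of_commute c.1 a.1.1 b.1.1 hsc (congrArg Subtype.val ha)
        (congrArg Subtype.val hb)
  -- pass to the normaliser
  set N := Subgroup.normalizer ((S : Subgroup SL(2, F)) : Set SL(2, F)) with hN
  have hSN : (S : Subgroup SL(2, F)) ≤ N := Subgroup.le_normalizer
  let S' : Sylow 2 N := S.subtype hSN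
  have hS'c : (S' : Subgroup N) = (S : Subgroup SL(2, F)).subgroupOf N := rfl
  have hS'n : (S' : Subgroup N).Normal := by
    rw [hS'c]
    exact Subgroup.normal_in_normalizer
  have e' : (S' : Subgroup N) ≃* QuaternionGroup (2 ^ k) :=
    (Subgroup.subgroupOfEquivOfLe hSN).trans e
  refine np_two_of_normal S' hS'n hk e' ?_
  intro x hx
  rw [hS'c, Subgroup.mem_subgroupOf]
  apply hcent
  rw [Subgroup.mem_centralizer_iff] at hx ⊢
  intro y hy
  have h3 := hx ⟨y, hSN hy⟩ (by
    change (⟨y, hSN hy⟩ : N) ∈ (S' : Subgroup N)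
    rw [hS'c, Subgroup.mem_subgroupOf]
    exact hy)
  exact congrArg Subtype.val h3

end Cfsg.Agent.H142.McKayTwo
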