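import Mathlib.LinearAlgebra.Matrix.SpecialLinearGroup
import Mathlib.LinearAlgebra.Matrix.Transvection
import Mathlib.GroupTheory.Sylow
import Mathlib.GroupTheory.SpecificGroups.Cyclic
import Mathlib.FieldTheory.Finite.Basic
import Mathlib.Algebra.CharP.Lemmas
import Mathlib.RingTheory.RootsOfUnity.Basic
import Mathlib.RingTheory.IntegralDomain
import Mathlib.LinearAlgebra.Matrix.CharP

/-!
# Elements of `SL_n(F)` centralising a Sylow `p`-subgroup, in characteristic `p`

`mem_center_of_centralizes_sylow`: a `p`-regular element of `SL_n(F)` (`F` a finite field of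
characteristic `p`) centralising a Sylow `p`-subgroup is a scalar.
-/

set_option autoImplicit false

namespace Cfsg.Agent.H142.SLCent

open Matrix

variable {F : Type*} [Field F] {n : ℕ}

/-- The elementary matrix `1 + a E_{ij}` in `SL_n`. -/
def elem (i j : Fin n) (h : i ≠ j) (a : F) : Matrix.SpecialLinearGroup (Fin n) F :=
  ⟨Matrix.transvection i j a, Matrix.det_transvection_of_ne i j h a⟩

/-- The group of all matrices differing from the identity only in the first row, off the diagonal. -/
def rowGroup (i : Fin n) : Subgroup (Matrix.SpecialLinearGroup (Fin n) F) :=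
  Subgroup.closure {x | ∃ (j : Fin n) (h : i ≠ j) (a : F), x = elem i j h a}

/-- Two elementary matrices with the same row index commute. -/
theorem elem_comm (i j k : Fin n) (h : i ≠ j) (h' : i ≠ k) (a b : F) :
    elem i j h a * elem i k h' b = elem i k h' b * elem i j h a := by
  apply Subtype.ext
  change Matrix.transvection i j a * Matrix.transvection i k b =
    Matrix.transvection i k b * Matrix.transvection i j a
  simp only [Matrix.transvection, add_mul, mul_add, one_mul, mul_one]
  rw [Matrix.single_mul_single_of_ne _ _ _ _ (Ne.symm h), Matrix.single_mul_single_of_ne _ _ _ _ (Ne.symm h')]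
  abel

theorem elem_pow (i j : Fin n) (h : i ≠ j) (a : F) (m : ℕ) :
    (elem i j h a) ^ m = elem i j h (m * a) := by
  induction m with
  | zero =>
    rw [pow_zero]
    apply Subtype.ext
    change (1 : Matrix (Fin n) (Fin n) F) = Matrix.transvection i j _
    simp
  | succ m ih =>
    rw [pow_succ, ih]
    apply Subtype.ext
    change Matrix.transvection i j (m * a) * Matrix.transvection i j a = Matrix.transvection i j _
    rw [Matrix.transvection_mul_transvection_same _ _ h]
    congr 1
    push_cast
    ring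

/-- The row group is an elementary abelian `p`-group. -/
theorem isPGroup_rowGroup (p : ℕ) [Fact p.Prime] [CharP F p] (i : Fin n) :
    IsPGroup p (rowGroup (F := F) i) := by
  have hcomm : ∀ x ∈ rowGroup (F := F) i, ∀ y ∈ rowGroup (F := F) i, x * y = y * x := by
    intro x hx y hy
    have h1 : IsMulCommutative (Subgroup.closure
        {x : Matrix.SpecialLinearGroup (Fin n) F | ∃ (j : Fin n) (h : i ≠ j) (a : F), x = elem i j h a}) := by
      apply Subgroup.isMulCommutative_closure
      rintro x ⟨j, hj, a, rfl⟩ y ⟨k, hk, b, rfl⟩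
      exact elem_comm i j k hj hk a b
    have h2 := h1.is_comm.comm (⟨x, hx⟩ : rowGroup (F := F) i) ⟨y, hy⟩
    exact congrArg Subtype.val h2
  intro x
  refine ⟨1, ?_⟩
  have h : ∀ y ∈ rowGroup (F := F) i, y ^ p = 1 := by
    intro y hy
    refine Subgroup.closure_induction (p := fun y _ => y ^ p = 1) ?_ ?_ ?_ ?_ hy
    · rintro y ⟨j, hj, a, rfl⟩
      rw [elem_pow, CharP.cast_eq_zero, zero_mul]
      apply Subtype.ext
      simp [elem]
    · exact one_pow _
    · intro a b ha hb ha' hb'
      rw [(show Commute a b from hcomm a ha b hb).mul_pow, ha', hb', one_mul]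
    · intro a _ ha'
      rw [inv_pow, ha', inv_one]
  apply Subtype.ext
  rw [pow_one]
  exact h x x.2

/-- A matrix commuting with all the elementary matrices in row `i` is a scalar plus a matrix
concentrated in row `i`; if it is `p`-regular it is a scalar. -/
theorem mem_center_of_commute (p : ℕ) [Fact p.Prime] [CharP F p] [Finite F] (i : Fin n)
    (hn : 2 ≤ n) (c : Matrix.SpecialLinearGroup (Fin n) F) (hc : ¬ p ∣ orderOf c)
    (hcomm : ∀ (j : Fin n) (h : i ≠ j), c * elem i j h 1 = elem i j h 1 * c) :
    c ∈ Subgroup.center (Matrix.SpecialLinearGroup (Fin n) F) := by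
  have hp : p.Prime := Fact.out
  have h1 : ∀ (j : Fin n) (h : i ≠ j), c.1 * Matrix.single i j (1 : F) = Matrix.single i j (1 : F) * c.1 := by
    intro j h
    have h2 : c.1 * Matrix.transvection i j (1 : F) = Matrix.transvection i j (1 : F) * c.1 :=
      congrArg Subtype.val (hcomm j h)
    simp only [Matrix.transvection, add_mul, mul_add, one_mul, mul_one] at h2
    exact add_left_cancel h2
  -- entries
  have hcol : ∀ a : Fin n, a ≠ i → c.1 a i = 0 := by
    intro a ha
    obtain ⟨j, hj⟩ : ∃ j : Fin n, i ≠ j := by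
      have : Nontrivial (Fin n) := Fin.nontrivial_iff_two_le.2 hn
      obtain ⟨j, hj⟩ := exists_ne i
      exact ⟨j, hj.symm⟩
    have h2 := congrFun (congrFun (h1 j hj) a) j
    rw [Matrix.mul_single_apply_same, Matrix.single_mul_apply_of_ne _ _ _ _ _ ha, mul_one] at h2
    exact h2
  have hent : ∀ (j : Fin n), i ≠ j → ∀ b : Fin n, c.1 j b = if b = j then c.1 i i else 0 := by
    intro j hj b
    have h2 := congrFun (congrFun (h1 j hj) i) b
    rw [Matrix.single_mul_apply_same, one_mul] at h2
    rw [← h2]
    split_ifs with hb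
    · subst hb
      rw [Matrix.mul_single_apply_same, mul_one]
    · rw [Matrix.mul_single_apply_of_ne _ _ _ _ _ hb]
  -- c = s + N
  set s : F := c.1 i i with hs
  set N : Matrix (Fin n) (Fin n) F := c.1 - Matrix.scalar (Fin n) s with hN
  have hNe : ∀ a b, a ≠ i → N a b = 0 := by
    intro a b ha
    rw [hN, Matrix.sub_apply, hent a (Ne.symm ha) b, Matrix.scalar_apply, Matrix.diagonal_apply]
    split_ifs with h2 h3 h3
    · rw [hs]; ring
    · exact absurd h2.symm h3
    · exact absurd h3.symm h2
    · ring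
  have hNi : N i i = 0 := by
    rw [hN, Matrix.sub_apply, Matrix.scalar_apply, Matrix.diagonal_apply_eq, hs, sub_self]
  have hN2 : N * N = 0 := by
    ext a b
    rw [Matrix.mul_apply, Matrix.zero_apply]
    apply Finset.sum_eq_zero
    intro k _
    by_cases hk : k = i
    · subst hk
      by_cases ha : a = k
      · subst ha; rw [hNi, zero_mul]
      · rw [hNe a _ ha, zero_mul]
    · rw [hNe k b hk, mul_zero]
  have hcN : c.1 = Matrix.scalar (Fin n) s + N := by rw [hN]; abel
  have hpow : (c ^ p).1 = Matrix.scalar (Fin n) (s ^ p) := by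
    have h2 : (c ^ p).1 = c.1 ^ p := rfl
    rw [h2, hcN]
    have : CharP (Matrix (Fin n) (Fin n) F) p := by
      have : Nonempty (Fin n) := ⟨i⟩
      infer_instance
    have : ExpChar (Matrix (Fin n) (Fin n) F) p := ExpChar.prime hp
    rw [add_pow_expChar_of_commute p (Matrix.scalar_commute s (fun r => mul_comm _ _) N)]
    have h3 : N ^ p = 0 := by
      obtain ⟨k, hk⟩ : ∃ k, p = 2 + k := ⟨p - 2, by have := hp.two_le; omega⟩
      rw [hk, pow_add, pow_two, hN2, zero_mul]
    rw [h3, add_zero, ← map_pow]
  have hcen : c ^ p ∈ Subgroup.center (Matrix.SpecialLinearGroup (Fin n) F) := by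
    rw [Matrix.SpecialLinearGroup.mem_center_iff]
    refine ⟨s ^ p, ?_, hpow.symm⟩
    have h2 := (c ^ p).2
    rw [hpow] at h2
    simpa [Matrix.scalar_apply, Matrix.det_diagonal] using h2
  have hcop : Nat.Coprime (orderOf c) p := (Nat.Coprime.symm ((Nat.Prime.coprime_iff_not_dvd hp).2 hc))
  obtain ⟨m, hm⟩ := exists_pow_eq_self_of_coprime hcop.symm
  rw [← hm]
  exact pow_mem hcen m

/-- A `p`-regular element of `SL_n(F)` centralising a Sylow `p`-subgroup is central. -/
theorem mem_center_of_centralizes_sylow (p : ℕ) [Fact p.Prime] [CharP F p] [Finite F]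
    (hn : 2 ≤ n) (P : Sylow p (Matrix.SpecialLinearGroup (Fin n) F))
    (c : Matrix.SpecialLinearGroup (Fin n) F) (hc : ¬ p ∣ orderOf c)
    (hcP : c ∈ Subgroup.centralizer ((P : Subgroup (Matrix.SpecialLinearGroup (Fin n) F)) :
      Set (Matrix.SpecialLinearGroup (Fin n) F))) :
    c ∈ Subgroup.center (Matrix.SpecialLinearGroup (Fin n) F) := by
  let i : Fin n := ⟨0, by omega⟩
  obtain ⟨Q, hQ⟩ := (isPGroup_rowGroup (F := F) p i).exists_le_sylow
  obtain ⟨x, hx⟩ := MulAction.exists_smul_eq (Matrix.SpecialLinearGroup (Fin n) F) P Q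
  have hmem : ∀ y ∈ Q, x⁻¹ * y * x ∈ P := by
    intro y hy
    rw [← hx] at hy
    obtain ⟨z, hz, rfl⟩ := hy
    change x⁻¹ * (x * z * x⁻¹) * x ∈ P
    have : x⁻¹ * (x * z * x⁻¹) * x = z := by group
    rw [this]
    exact hz
  have h1 : x * c * x⁻¹ ∈ Subgroup.center (Matrix.SpecialLinearGroup (Fin n) F) := by
    apply mem_center_of_commute p i hn
    · have : orderOf (x * c * x⁻¹) = orderOf c := by
        have := orderOf_injective (MulAut.conj x).toMonoidHom (MulAut.conj x).injective c
        simpa using this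
      rwa [this]
    · intro j h
      have h2 : elem i j h (1 : F) ∈ Q := hQ (Subgroup.subset_closure ⟨j, h, 1, rfl⟩)
      have h3 := Subgroup.mem_centralizer_iff.1 hcP _ (hmem _ h2)
      have h4 : x * (x⁻¹ * elem i j h 1 * x * c) * x⁻¹ = x * (c * (x⁻¹ * elem i j h 1 * x)) * x⁻¹ := by
        rw [h3]
      have h5 : x * (x⁻¹ * elem i j h 1 * x * c) * x⁻¹ = elem i j h 1 * (x * c * x⁻¹) := by group
      have h6 : x * (c * (x⁻¹ * elem i j h 1 * x)) * x⁻¹ = (x * c * x⁻¹) * elem i j h 1 := by group
      rw [← h5, ← h6, h4]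
  have h2 : c = x * c * x⁻¹ := by
    have h3 := Subgroup.mem_center_iff.1 h1 x
    have h4 : x * (x * c * x⁻¹) = x * (x * c * x⁻¹) := rfl
    have : x * c = x * (x * c * x⁻¹) := by
      rw [h3]; group
    exact mul_left_cancel this
  rw [h2]
  exact h1

/-- The centre of `SL_n(F)` consists of `p`-regular elements. -/
theorem not_dvd_orderOf_of_mem_center (p : ℕ) [Fact p.Prime] [CharP F p] [Finite F]
    (z : Matrix.SpecialLinearGroup (Fin n) F)
    (hz : z ∈ Subgroup.center (Matrix.SpecialLinearGroup (Fin n) F)) : ¬ p ∣ orderOf z := by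
  classical
  have : Fintype F := Fintype.ofFinite F
  have hp : p.Prime := Fact.out
  obtain ⟨r, hr, hrz⟩ := Matrix.SpecialLinearGroup.mem_center_iff.1 hz
  rcases Nat.eq_zero_or_pos n with hn | hn
  · subst hn
    have : z = 1 := by
      apply Subtype.ext
      ext i
      exact i.elim0
    rw [this, orderOf_one]
    exact hp.one_lt.ne' ∘ Nat.dvd_one.1
  have hr0 : r ≠ 0 := by
    rintro rfl
    rw [Fintype.card_fin, zero_pow hn.ne'] at hr
    exact zero_ne_one hr
  have h1 : z ^ (Fintype.card F - 1) = 1 := by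
    apply Subtype.ext
    change z.1 ^ (Fintype.card F - 1) = 1
    rw [← hrz, ← map_pow, FiniteField.pow_card_sub_one_eq_one r hr0, map_one]
  intro h
  have h2 : p ∣ Fintype.card F - 1 := h.trans (orderOf_dvd_of_pow_eq_one h1)
  have h3 : p ∣ Fintype.card F := by
    obtain ⟨k, hk⟩ := FiniteField.card F p
    rw [hk.2]
    exact dvd_pow_self p k.2.ne'
  have h4 : p ∣ 1 := by
    have h5 : Fintype.card F - (Fintype.card F - 1) = 1 := by
      have := Fintype.card_pos (α := F)
      omega
    rw [← h5]
    exact Nat.dvd_sub h3 h2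
  exact hp.one_lt.ne' (Nat.dvd_one.1 h4)

end Cfsg.Agent.H142.SLCent
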