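import Cfsg.Agent.H142.FullBlocks
import Cfsg.Agent.H142.SLCent
import Cfsg.Agent.S0157
import Cfsg.Agent.S0914
import Cfsg.Agent.ClassicalGeometry.PSL2Basic
import Cfsg.Agent.CharactersDeep.Extraspecial
import Mathlib.LinearAlgebra.Projectivization.Action
import Mathlib.LinearAlgebra.Projectivization.Cardinality

/-!
# The `p`-blocks of `SL_2(q)`, `q` odd, in its own characteristic `p`

Everything is deduced from the fact that there is exactly one block of defect zero and that all
other blocks have full defect (hypothesis `h` below).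
-/

set_option autoImplicit false
open Cfsg

namespace Cfsg.Agent.H142.SLTwoBlocks

open Cfsg.Agent.Blocks.Local Cfsg.Agent.Blocks.Basic
open scoped LinearAlgebra.Projectivization

/-- The centre of `SL_n(q)` has order `gcd(n, q - 1)`. -/
theorem card_center_SL {K : Type*} [Field K] [Fintype K] {n : ℕ} (hn : 1 ≤ n) :
    Nat.card (Subgroup.center (Matrix.SpecialLinearGroup (Fin n) K)) =
      Nat.gcd n (Fintype.card K - 1) := by
  have : Nonempty (Fin n) := ⟨⟨0, by omega⟩⟩
  rw [Nat.card_congr (Matrix.SpecialLinearGroup.center_equiv_rootsOfUnity'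
      (n := Fin n) (R := K) ⟨0, by omega⟩).toEquiv, rootsOfUnity_eq_ker,
      IsCyclic.card_powMonoidHom_ker, Nat.card_units, Nat.card_eq_fintype_card, Fintype.card_fin,
      Nat.gcd_comm]

/-- The characteristic divides the order of `SL_n(F)`, `n ≥ 2`. -/
theorem dvd_card_SL {K : Type*} [Field K] [Finite K] {n : ℕ} (hn : 2 ≤ n) (p : ℕ) [Fact p.Prime]
    [CharP K p] : p ∣ Nat.card (Matrix.SpecialLinearGroup (Fin n) K) := by
  let i : Fin n := ⟨0, by omega⟩
  let j : Fin n := ⟨1, by omega⟩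
  have hij : i ≠ j := by
    intro h
    have := congrArg Fin.val h
    simp [i, j] at this
  have hord : orderOf (SLCent.elem i j hij (1 : K)) = p := by
    apply orderOf_eq_prime
    · rw [SLCent.elem_pow, CharP.cast_eq_zero, zero_mul]
      apply Subtype.ext
      change Matrix.transvection i j (0 : K) = 1
      simp
    · intro h
      have h1 : (SLCent.elem i j hij (1 : K)).1 i j = (1 : Matrix (Fin n) (Fin n) K) i j := by
        rw [h]; rfl
      simp [SLCent.elem, Matrix.transvection, hij] at h1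
  rw [← hord]
  exact orderOf_dvd_natCard _

/-- The number of blocks of `SL_n(q)` in characteristic `p`, given the defect dichotomy. -/
theorem card_blocks_SL {K : Type*} [Field K] [Fintype K] {n : ℕ} (hn : 2 ≤ n) (p : ℕ) [Fact p.Prime]
    [CharP K p] (M : Ideal AlgInt) (hM : IsPModular p M)
    (h : Nat.card {B : Set (IrrCharacter (Matrix.SpecialLinearGroup (Fin n) K)) //
        IsPBlock M B ∧ blockDefect p B = 0} = 1 ∧
      ∀ B : Set (IrrCharacter (Matrix.SpecialLinearGroup (Fin n) K)), IsPBlock M B →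
        blockDefect p B = 0 ∨
          blockDefect p B = (Nat.card (Matrix.SpecialLinearGroup (Fin n) K)).factorization p) :
    Nat.card {B : Set (IrrCharacter (Matrix.SpecialLinearGroup (Fin n) K)) // IsPBlock M B} =
      Nat.gcd n (Fintype.card K - 1) + 1 := by
  obtain ⟨P⟩ : Nonempty (Sylow p (Matrix.SpecialLinearGroup (Fin n) K)) := inferInstance
  rw [FullBlocks.card_split hM P (dvd_card_SL hn p) h.2, h.1,
    FullBlocks.card_full hM P (fun c hc hcP => SLCent.mem_center_of_centralizes_sylow p hn P c hc hcP)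
      (fun z hz => SLCent.not_dvd_orderOf_of_mem_center p z hz),
    card_center_SL (by omega), add_comm]

variable {F : Type*} [Field F] [Fintype F]

/-- The Steinberg character of `SL_2(q)`: the permutation character on the projective line minus
one. -/
noncomputable def st (F : Type*) [Field F] : Matrix.SpecialLinearGroup (Fin 2) F → ℂ :=
  fun g => (Nat.card (MulAction.fixedBy (ℙ F (Fin 2 → F)) g) : ℂ) - 1

theorem card_line : Nat.card (ℙ F (Fin 2 → F)) = Fintype.card F + 1 := by
  rw [Projectivization.card_of_finrank_two F (Fin 2 → F) (by simp), Nat.card_eq_fintype_card]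

theorem isIrr_st : IsIrrCharacter (Matrix.SpecialLinearGroup (Fin 2) F) (st F) := by
  have h1 : MulAction.IsMultiplyPretransitive (Matrix.SpecialLinearGroup (Fin 2) F)
      (ℙ F (Fin 2 → F)) 2 := inferInstance
  have h2 : MulAction.IsPretransitive (Matrix.SpecialLinearGroup (Fin 2) F)
      (ℙ F (Fin 2 → F)) := MulAction.isPretransitive_of_is_two_pretransitive
  have h3 : Finite (ℙ F (Fin 2 → F)) := by
    apply Nat.finite_of_card_ne_zero
    rw [card_line]; omega
  refine (Cfsg.Agent.S0157.result (ℙ F (Fin 2 → F)) ?_).2 h1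
  rw [card_line]
  have := Fintype.one_lt_card (α := F)
  omega

theorem st_one : st F 1 = (Fintype.card F : ℂ) := by
  have h : MulAction.fixedBy (ℙ F (Fin 2 → F)) (1 : Matrix.SpecialLinearGroup (Fin 2) F) = Set.univ := by
    ext x; simp
  rw [st, h, Nat.card_univ, card_line]
  push_cast
  ring

theorem st_neg_one : st F (-1) = (Fintype.card F : ℂ) := by
  have h : MulAction.fixedBy (ℙ F (Fin 2 → F)) (-1 : Matrix.SpecialLinearGroup (Fin 2) F) = Set.univ := by
    ext x
    simp only [MulAction.mem_fixedBy, Set.mem_univ, iff_true]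
    induction x using Projectivization.ind with
    | h v hv =>
      rw [Projectivization.smul_mk]
      rw [Projectivization.mk_eq_mk_iff']
      refine ⟨-1, ?_⟩
      change (-1 : F) • v = (-1 : Matrix (Fin 2) (Fin 2) F).mulVec v
      rw [Matrix.neg_mulVec, Matrix.one_mulVec, neg_smul, one_smul]
  rw [st, h, Nat.card_univ, card_line]
  push_cast
  ring


omit [Fintype F] in
theorem neg_one_mem_center : (-1 : Matrix.SpecialLinearGroup (Fin 2) F) ∈
    Subgroup.center (Matrix.SpecialLinearGroup (Fin 2) F) := by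
  rw [Subgroup.mem_center_iff]
  intro g
  rw [mul_neg, mul_one, neg_mul, one_mul]

omit [Fintype F] in
/-- An irreducible character takes one of the values `± χ 1` at `-1`. -/
theorem apply_neg_one (χ : IrrCharacter (Matrix.SpecialLinearGroup (Fin 2) F)) :
    (χ : Matrix.SpecialLinearGroup (Fin 2) F → ℂ) (-1) = (χ : Matrix.SpecialLinearGroup (Fin 2) F → ℂ) 1 ∨
    (χ : Matrix.SpecialLinearGroup (Fin 2) F → ℂ) (-1) = -(χ : Matrix.SpecialLinearGroup (Fin 2) F → ℂ) 1 := by
  obtain ⟨c, hc, -⟩ := Cfsg.Agent.CharactersDeep.Extraspecial.exists_central_hom χ.2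
  set z : Subgroup.center (Matrix.SpecialLinearGroup (Fin 2) F) := ⟨-1, neg_one_mem_center⟩ with hz
  have h1 := hc 1 z
  rw [one_mul] at h1
  have h2 : z * z = 1 := by
    apply Subtype.ext
    change (-1 : Matrix.SpecialLinearGroup (Fin 2) F) * -1 = 1
    rw [neg_mul_neg, one_mul]
  have h3 : (c z : ℂ) * (c z : ℂ) = 1 := by
    have := congrArg c h2
    rw [map_mul, map_one] at this
    simpa using congrArg Units.val this
  rcases mul_self_eq_one_iff.1 h3 with h4 | h4
  · left; rw [h4, mul_one] at h1; exact h1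
  · right; rw [h4, mul_neg, mul_one] at h1; exact h1

omit [Fintype F] in
theorem centralChar_neg_one (χ : IrrCharacter (Matrix.SpecialLinearGroup (Fin 2) F)) :
    centralChar (χ : Matrix.SpecialLinearGroup (Fin 2) F → ℂ) (-1) =
      (χ : Matrix.SpecialLinearGroup (Fin 2) F → ℂ) (-1) / (χ : Matrix.SpecialLinearGroup (Fin 2) F → ℂ) 1 := by
  have h1 : Subgroup.centralizer ({(-1 : Matrix.SpecialLinearGroup (Fin 2) F)} : Set _) = ⊤ := by
    rw [eq_top_iff]
    intro g _
    rw [Subgroup.mem_centralizer_singleton_iff]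
    exact (Subgroup.mem_center_iff.1 neg_one_mem_center g)
  rw [centralChar_def, h1, Subgroup.index_top]
  push_cast
  rw [one_mul]

/-- Characters in one block have the same sign at `-1`. -/
theorem sign_of_sameBlock {p : ℕ} (hp2 : p ≠ 2) {M : Ideal AlgInt} (hM : IsPModular p M)
    (χ ψ : IrrCharacter (Matrix.SpecialLinearGroup (Fin 2) F))
    (h : SameBlock M (χ : Matrix.SpecialLinearGroup (Fin 2) F → ℂ) (ψ : Matrix.SpecialLinearGroup (Fin 2) F → ℂ))
    (hχ : (χ : Matrix.SpecialLinearGroup (Fin 2) F → ℂ) (-1) = (χ : Matrix.SpecialLinearGroup (Fin 2) F → ℂ) 1) :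
    (ψ : Matrix.SpecialLinearGroup (Fin 2) F → ℂ) (-1) = (ψ : Matrix.SpecialLinearGroup (Fin 2) F → ℂ) 1 := by
  have := isPrime_of_isPModular hM
  rcases apply_neg_one ψ with h1 | h1
  · exact h1
  · exfalso
    have h2 := h (-1)
    have hχ1 := irr_one_ne_zero χ.2
    have hψ1 := irr_one_ne_zero ψ.2
    rw [centralChar_neg_one, centralChar_neg_one, hχ, h1, div_self hχ1, neg_div, div_self hψ1] at h2
    have h3 : ((1 : ℂ) - -1) = ((2 : ℕ) : ℂ) := by norm_num
    rw [h3, memLocalIdeal_natCast_iff hM] at h2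
    exact hp2 ((Nat.prime_dvd_prime_iff_eq hM.1 Nat.prime_two).1 h2)

/-- There is an irreducible character with `χ (-1) = - χ 1`, `q` odd. -/
theorem exists_faithful (h2 : (-1 : Matrix.SpecialLinearGroup (Fin 2) F) ≠ 1) :
    ∃ χ : IrrCharacter (Matrix.SpecialLinearGroup (Fin 2) F),
      (χ : Matrix.SpecialLinearGroup (Fin 2) F → ℂ) (-1) = -(χ : Matrix.SpecialLinearGroup (Fin 2) F → ℂ) 1 := by
  classical
  have hfin : Finite (IrrCharacter (Matrix.SpecialLinearGroup (Fin 2) F)) :=
    Cfsg.Agent.Characters.Core.finite_irr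
  have := Fintype.ofFinite (IrrCharacter (Matrix.SpecialLinearGroup (Fin 2) F))
  by_contra hcon
  push Not at hcon
  have hcon2 : ∀ χ : IrrCharacter (Matrix.SpecialLinearGroup (Fin 2) F),
      (χ : Matrix.SpecialLinearGroup (Fin 2) F → ℂ) (-1) = (χ : Matrix.SpecialLinearGroup (Fin 2) F → ℂ) 1 :=
    fun χ => (apply_neg_one χ).resolve_right (hcon χ)
  let f : Matrix.SpecialLinearGroup (Fin 2) F → ℂ := fun g => if g = 1 then 1 else 0
  have hf : IsClassFunction (Matrix.SpecialLinearGroup (Fin 2) F) f := by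
    intro g x
    change (if x * g * x⁻¹ = 1 then (1 : ℂ) else 0) = if g = 1 then 1 else 0
    simp only [conj_eq_one_iff]
  have hexp := Cfsg.Agent.Characters.Core.classFunction_eq_sum hf
  have h2' : f (-1) = f 1 := by
    rw [hexp, Finset.sum_apply, Finset.sum_apply]
    refine Finset.sum_congr rfl fun χ _ => ?_
    rw [Pi.smul_apply, Pi.smul_apply, hcon2 χ]
  have h3 : f (-1) = 0 := if_neg h2
  have h4 : f 1 = 1 := if_pos rfl
  rw [h3, h4] at h2'
  exact zero_ne_one h2'

/-- The exponent of `p` in the order of `SL_2(q)`: the `p`-part is `q`. -/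
theorem factorization_card (p : ℕ) [Fact p.Prime] [CharP F p] :
    p ^ (Nat.card (Matrix.SpecialLinearGroup (Fin 2) F)).factorization p = Fintype.card F ∧
    ∃ m : ℕ, ¬ p ∣ m ∧ Nat.card (Matrix.SpecialLinearGroup (Fin 2) F) = Fintype.card F * m := by
  have hp : p.Prime := Fact.out
  have h1 := Cfsg.Agent.ClassicalGeometry.PSL2Basic.card_SL2 (F := F)
  obtain ⟨k, hk⟩ := FiniteField.card F p
  have hq : 1 < Fintype.card F := Fintype.one_lt_card
  have hnd : ¬ p ∣ Fintype.card F ^ 2 - 1 := by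
    intro h
    have h3 : p ∣ Fintype.card F ^ 2 := by
      rw [hk.2]
      exact dvd_pow (dvd_pow_self p k.2.ne') two_ne_zero
    have h4 : p ∣ 1 := by
      have h5 : Fintype.card F ^ 2 - (Fintype.card F ^ 2 - 1) = 1 := by
        have : 1 ≤ Fintype.card F ^ 2 := Nat.one_le_pow _ _ (by omega)
        omega
      rw [← h5]
      exact Nat.dvd_sub h3 h
    exact hp.one_lt.ne' (Nat.dvd_one.1 h4)
  refine ⟨?_, _, hnd, h1⟩
  have hn0 : Fintype.card F ^ 2 - 1 ≠ 0 := by
    intro h0
    rw [h0] at hnd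
    exact hnd (dvd_zero p)
  rw [h1, Nat.factorization_mul (by omega) hn0, Finsupp.add_apply,
    Nat.factorization_eq_zero_of_not_dvd hnd, add_zero, hk.2, hp.factorization_pow]
  simp

/-- The main theorem, given that there is exactly one block of defect zero and that all others
have full defect. -/
theorem main (p : ℕ) [Fact p.Prime] [CharP F p] (hp : p ≠ 2)
    (M : Ideal Cfsg.AlgInt) (hM : Cfsg.IsPModular p M)
    (h : Nat.card {B : Set (IrrCharacter (Matrix.SpecialLinearGroup (Fin 2) F)) //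
        IsPBlock M B ∧ blockDefect p B = 0} = 1 ∧
      ∀ B : Set (IrrCharacter (Matrix.SpecialLinearGroup (Fin 2) F)), IsPBlock M B →
        blockDefect p B = 0 ∨
          blockDefect p B = (Nat.card (Matrix.SpecialLinearGroup (Fin 2) F)).factorization p) :
    (∀ B : Set (Cfsg.IrrCharacter (Matrix.SpecialLinearGroup (Fin 2) F)), Cfsg.IsPBlock M B ↔
      (B = {χ : Cfsg.IrrCharacter (Matrix.SpecialLinearGroup (Fin 2) F) | (χ : Matrix.SpecialLinearGroup (Fin 2) F → ℂ) 1 = (Fintype.card F : ℂ)} ∨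
       B = {χ : Cfsg.IrrCharacter (Matrix.SpecialLinearGroup (Fin 2) F) | (χ : Matrix.SpecialLinearGroup (Fin 2) F → ℂ) (-1) = (χ : Matrix.SpecialLinearGroup (Fin 2) F → ℂ) 1 ∧ (χ : Matrix.SpecialLinearGroup (Fin 2) F → ℂ) 1 ≠ (Fintype.card F : ℂ)} ∨
       B = {χ : Cfsg.IrrCharacter (Matrix.SpecialLinearGroup (Fin 2) F) | (χ : Matrix.SpecialLinearGroup (Fin 2) F → ℂ) (-1) = -(χ : Matrix.SpecialLinearGroup (Fin 2) F → ℂ) 1})) ∧
    Nat.card {B : Set (Cfsg.IrrCharacter (Matrix.SpecialLinearGroup (Fin 2) F)) // Cfsg.IsPBlock M B} = 3 ∧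
    ∀ P : Sylow p (Matrix.SpecialLinearGroup (Fin 2) F),
      Cfsg.IsDefectGroup p M {χ : Cfsg.IrrCharacter (Matrix.SpecialLinearGroup (Fin 2) F) | (χ : Matrix.SpecialLinearGroup (Fin 2) F → ℂ) (-1) = (χ : Matrix.SpecialLinearGroup (Fin 2) F → ℂ) 1 ∧ (χ : Matrix.SpecialLinearGroup (Fin 2) F → ℂ) 1 ≠ (Fintype.card F : ℂ)} (P : Subgroup (Matrix.SpecialLinearGroup (Fin 2) F)) ∧
      Cfsg.IsDefectGroup p M {χ : Cfsg.IrrCharacter (Matrix.SpecialLinearGroup (Fin 2) F) | (χ : Matrix.SpecialLinearGroup (Fin 2) F → ℂ) (-1) = -(χ : Matrix.SpecialLinearGroup (Fin 2) F → ℂ) 1} (P : Subgroup (Matrix.SpecialLinearGroup (Fin 2) F)) := by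
  classical
  have hMp := isPrime_of_isPModular hM
  have hpp : p.Prime := Fact.out
  have hfin : Finite (IrrCharacter (Matrix.SpecialLinearGroup (Fin 2) F)) :=
    Cfsg.Agent.Characters.Core.finite_irr
  have hfinS : Finite (Set (IrrCharacter (Matrix.SpecialLinearGroup (Fin 2) F))) := inferInstance
  obtain ⟨hcardp, m, hm, hcardm⟩ := factorization_card (F := F) p
  have hqpos : 0 < Fintype.card F := Fintype.card_pos
  have hodd : Odd (Fintype.card F) := by
    obtain ⟨k, hk⟩ := FiniteField.card F p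
    rw [hk.2]
    exact (hpp.odd_of_ne_two hp).pow
  have hne : (-1 : Matrix.SpecialLinearGroup (Fin 2) F) ≠ 1 := by
    intro h0
    have h1 : (-1 : Matrix (Fin 2) (Fin 2) F) 0 0 = (1 : Matrix (Fin 2) (Fin 2) F) 0 0 :=
      congrFun (congrFun (congrArg Subtype.val h0) 0) 0
    rw [Matrix.neg_apply, Matrix.one_apply_eq] at h1
    have h2 : (2 : F) = 0 := by linear_combination -h1
    have h3 : ((2 : ℕ) : F) = 0 := by exact_mod_cast h2
    rw [CharP.cast_eq_zero_iff F p] at h3
    exact hp ((Nat.prime_dvd_prime_iff_eq hpp Nat.prime_two).1 h3)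
  -- characters of degree divisible by `q`
  have hblk : ∀ χ : IrrCharacter (Matrix.SpecialLinearGroup (Fin 2) F),
      (χ : Matrix.SpecialLinearGroup (Fin 2) F → ℂ) 1 = (Fintype.card F : ℂ) →
        blockOf M (χ : Matrix.SpecialLinearGroup (Fin 2) F → ℂ) = {χ} ∧
          blockDefect p ({χ} : Set (IrrCharacter (Matrix.SpecialLinearGroup (Fin 2) F))) = 0 := by
    intro χ hχ
    have hdeg : charDegree (χ : Matrix.SpecialLinearGroup (Fin 2) F → ℂ) = Fintype.card F :=
      charDegree_of_eq hχ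
    constructor
    · rw [← Cfsg.Agent.S0914.result p M hM χ, hdeg, hcardm, Nat.mul_div_cancel_left _ hqpos]
      exact hm
    · rw [blockDefect_def, Set.image_singleton, csInf_singleton, hdeg, ← hcardp,
        hpp.factorization_pow]
      simp
  -- the Steinberg character
  let S : IrrCharacter (Matrix.SpecialLinearGroup (Fin 2) F) := ⟨st F, isIrr_st⟩
  have hS := hblk S st_one
  have huniq : ∀ B : Set (IrrCharacter (Matrix.SpecialLinearGroup (Fin 2) F)),
      IsPBlock M B → blockDefect p B = 0 → B = {S} := by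
    intro B hB hB0
    have h1 := h.1
    rw [Nat.card_eq_one_iff_unique] at h1
    have h2 := h1.1.elim
      (⟨B, hB, hB0⟩ : {B : Set (IrrCharacter (Matrix.SpecialLinearGroup (Fin 2) F)) //
        IsPBlock M B ∧ blockDefect p B = 0})
      ⟨{S}, ⟨S, hS.1.symm⟩, hS.2⟩
    exact congrArg Subtype.val h2
  have hdegS : ∀ χ : IrrCharacter (Matrix.SpecialLinearGroup (Fin 2) F),
      (χ : Matrix.SpecialLinearGroup (Fin 2) F → ℂ) 1 = (Fintype.card F : ℂ) ↔ χ = S := by
    intro χ
    constructor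
    · intro hχ
      have h1 := hblk χ hχ
      have h2 := huniq {χ} ⟨χ, h1.1.symm⟩ h1.2
      exact Set.singleton_eq_singleton_iff.1 h2
    · rintro rfl
      exact st_one
  have hset : {χ : Cfsg.IrrCharacter (Matrix.SpecialLinearGroup (Fin 2) F) |
      (χ : Matrix.SpecialLinearGroup (Fin 2) F → ℂ) 1 = (Fintype.card F : ℂ)} = {S} := by
    ext χ
    exact hdegS χ
  have hfull : ∀ B : Set (IrrCharacter (Matrix.SpecialLinearGroup (Fin 2) F)),
      IsPBlock M B → B ≠ {S} →
        blockDefect p B = (Nat.card (Matrix.SpecialLinearGroup (Fin 2) F)).factorization p := by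
    intro B hB hne
    exact (h.2 B hB).resolve_left fun h0 => hne (huniq B hB h0)
  -- the two blocks of full defect
  let one : IrrCharacter (Matrix.SpecialLinearGroup (Fin 2) F) := ⟨_, isIrrCharacter_one⟩
  obtain ⟨φ, hφ⟩ := exists_faithful (F := F) hne
  set B0 := blockOf M (one : Matrix.SpecialLinearGroup (Fin 2) F → ℂ) with hB0
  set B1 := blockOf M (φ : Matrix.SpecialLinearGroup (Fin 2) F → ℂ) with hB1
  have hB0b : IsPBlock M B0 := isPBlock_blockOf one
  have hB1b : IsPBlock M B1 := isPBlock_blockOf φ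
  have hone0 : one ∈ B0 := mem_blockOf_self one
  have hφ1 : φ ∈ B1 := mem_blockOf_self φ
  have hnot : ∀ χ : IrrCharacter (Matrix.SpecialLinearGroup (Fin 2) F),
      (χ : Matrix.SpecialLinearGroup (Fin 2) F → ℂ) (-1) = (χ : Matrix.SpecialLinearGroup (Fin 2) F → ℂ) 1 →
      (χ : Matrix.SpecialLinearGroup (Fin 2) F → ℂ) (-1) = -(χ : Matrix.SpecialLinearGroup (Fin 2) F → ℂ) 1 →
      False := by
    intro χ h1 h2
    have h3 := irr_one_ne_zero χ.2
    rw [h1] at h2
    exact h3 (self_eq_neg.1 h2)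
  have hB0S : B0 ≠ {S} := by
    intro h0
    rw [h0] at hone0
    have h1 : one = S := hone0
    have h2 : (one : Matrix.SpecialLinearGroup (Fin 2) F → ℂ) 1 = (Fintype.card F : ℂ) := by
      rw [h1]; exact st_one
    have h3 : (1 : ℂ) = (Fintype.card F : ℂ) := h2
    have h4 : 1 < Fintype.card F := Fintype.one_lt_card
    have h5 : (1 : ℕ) = Fintype.card F := by exact_mod_cast h3
    omega
  have hB1S : B1 ≠ {S} := by
    intro h0
    rw [h0] at hφ1
    have h1 : φ = S := hφ1
    rw [h1] at hφ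
    exact hnot S (by rw [show (S : Matrix.SpecialLinearGroup (Fin 2) F → ℂ) = st F from rfl,
      st_neg_one, st_one]) hφ
  have hB01 : B0 ≠ B1 := by
    intro h0
    rw [← h0] at hφ1
    have h1 := sign_of_sameBlock hp hM one φ (mem_blockOf.1 hφ1) rfl
    exact hnot φ h1 hφ
  obtain ⟨P⟩ : Nonempty (Sylow p (Matrix.SpecialLinearGroup (Fin 2) F)) := inferInstance
  have hcount : Nat.card {B : Set (IrrCharacter (Matrix.SpecialLinearGroup (Fin 2) F)) //
      IsPBlock M B} = 3 := by
    rw [card_blocks_SL (le_refl 2) p M hM h]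
    have h1 : Nat.gcd 2 (Fintype.card F - 1) = 2 := by
      apply Nat.gcd_eq_left
      obtain ⟨k, hk⟩ := hodd
      exact ⟨k, by omega⟩
    rw [h1]
  have hall : ∀ B : Set (IrrCharacter (Matrix.SpecialLinearGroup (Fin 2) F)), IsPBlock M B ↔
      B = {S} ∨ B = B0 ∨ B = B1 := by
    have h1 : ({B | IsPBlock M B} : Set (Set (IrrCharacter (Matrix.SpecialLinearGroup (Fin 2) F)))).ncard = 3 :=
      hcount
    have h2 : ({{S}, B0, B1} : Set (Set (IrrCharacter (Matrix.SpecialLinearGroup (Fin 2) F)))).ncard = 3 := by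
      rw [Set.ncard_eq_three]
      exact ⟨_, _, _, hB0S.symm, hB1S.symm, hB01, rfl⟩
    have h3 : ({{S}, B0, B1} : Set (Set (IrrCharacter (Matrix.SpecialLinearGroup (Fin 2) F)))) ⊆
        {B | IsPBlock M B} := by
      rintro B (rfl | rfl | rfl)
      · exact ⟨S, hS.1.symm⟩
      · exact hB0b
      · exact hB1b
    have h4 := Set.eq_of_subset_of_ncard_le h3 (by rw [h1, h2])
    intro B
    have h5 : B ∈ ({{S}, B0, B1} : Set (Set (IrrCharacter (Matrix.SpecialLinearGroup (Fin 2) F)))) ↔
        B ∈ ({B | IsPBlock M B} : Set (Set (IrrCharacter (Matrix.SpecialLinearGroup (Fin 2) F)))) := by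
      rw [h4]
    exact h5.symm
  -- identification of the two blocks
  have hmemS : ∀ χ : IrrCharacter (Matrix.SpecialLinearGroup (Fin 2) F), χ = S ∨ χ ∈ B0 ∨ χ ∈ B1 := by
    intro χ
    rcases (hall (blockOf M (χ : Matrix.SpecialLinearGroup (Fin 2) F → ℂ))).1 (isPBlock_blockOf χ) with h1 | h1 | h1
    · left
      have h2 := mem_blockOf_self (M := M) χ
      rw [h1] at h2
      exact h2
    · right; left; rw [← h1]; exact mem_blockOf_self χ
    · right; right; rw [← h1]; exact mem_blockOf_self χ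
  have hSB0 : S ∉ B0 := fun h0 => hB0S (isPBlock_eq_of_mem hB0b ⟨S, hS.1.symm⟩ h0 rfl)
  have hSB1 : S ∉ B1 := fun h0 => hB1S (isPBlock_eq_of_mem hB1b ⟨S, hS.1.symm⟩ h0 rfl)
  have hsgn0 : ∀ χ ∈ B0, (χ : Matrix.SpecialLinearGroup (Fin 2) F → ℂ) (-1) =
      (χ : Matrix.SpecialLinearGroup (Fin 2) F → ℂ) 1 := fun χ hχ =>
    sign_of_sameBlock hp hM one χ (mem_blockOf.1 hχ) rfl
  have hsgn1 : ∀ χ ∈ B1, (χ : Matrix.SpecialLinearGroup (Fin 2) F → ℂ) (-1) =
      -(χ : Matrix.SpecialLinearGroup (Fin 2) F → ℂ) 1 := by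
    intro χ hχ
    refine (apply_neg_one χ).resolve_left fun h0 => ?_
    exact hnot φ (sign_of_sameBlock hp hM χ φ (sameBlock_symm (mem_blockOf.1 hχ)) h0) hφ
  have hid0 : {χ : Cfsg.IrrCharacter (Matrix.SpecialLinearGroup (Fin 2) F) | (χ : Matrix.SpecialLinearGroup (Fin 2) F → ℂ) (-1) = (χ : Matrix.SpecialLinearGroup (Fin 2) F → ℂ) 1 ∧ (χ : Matrix.SpecialLinearGroup (Fin 2) F → ℂ) 1 ≠ (Fintype.card F : ℂ)} = B0 := by
    ext χ
    constructor
    · rintro ⟨h1, h2⟩
      rcases hmemS χ with h3 | h3 | h3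
      · exact absurd ((hdegS χ).2 h3) h2
      · exact h3
      · exact absurd (hsgn1 χ h3) (hnot χ h1)
    · intro h1
      refine ⟨hsgn0 χ h1, fun h2 => hSB0 ?_⟩
      rw [← (hdegS χ).1 h2]
      exact h1
  have hid1 : {χ : Cfsg.IrrCharacter (Matrix.SpecialLinearGroup (Fin 2) F) | (χ : Matrix.SpecialLinearGroup (Fin 2) F → ℂ) (-1) = -(χ : Matrix.SpecialLinearGroup (Fin 2) F → ℂ) 1} = B1 := by
    ext χ
    constructor
    · intro h1
      rcases hmemS χ with h3 | h3 | h3
      · exfalso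
        refine hnot χ ?_ h1
        rw [h3, show (S : Matrix.SpecialLinearGroup (Fin 2) F → ℂ) = st F from rfl, st_neg_one, st_one]
      · exact absurd h1 (hnot χ (hsgn0 χ h3))
      · exact h3
    · exact hsgn1 χ
  rw [hset, hid0, hid1]
  refine ⟨hall, hcount, fun P => ⟨?_, ?_⟩⟩
  · exact (FullBlocks.blockDefect_eq_iff hM P hB0b).1 (hfull B0 hB0b hB0S)
  · exact (FullBlocks.blockDefect_eq_iff hM P hB1b).1 (hfull B1 hB1b hB1S)

end Cfsg.Agent.H142.SLTwoBlocks
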